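import Cfsg.Prelude.Def_Spor_J4
import Cfsg.Agent.Eq.Def_Spor_J4

/-!
The involution of the presented fourth Janko group whose centralizer is studied in this folder:
the third generator of the subgroup `2^11 : M24`.
-/

set_option autoImplicit false

namespace CfsgLib.J4Cent82

open Cfsg.Spor

/-- the conjugating word -/
def wCent : FreeGroup J4.Gen := (J4.y * J4.x) ^ 4 * J4.y⁻¹ * J4.x

/-- the involution -/
def zCent : Cfsg.Spor.J4 :=
  PresentedGroup.mk (coxRelators J4.edges ∪ {r | r ∈ J4.extra})
    ((J4.y * wCent⁻¹ * J4.t * wCent) ^ 3)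

end CfsgLib.J4Cent82
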