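import Cfsg.Agent.J4Cent82.Checks

/-!
The action of the generators on the 77 vectors, checked in the representation.
-/

set_option autoImplicit false
set_option maxRecDepth 100000
set_option maxHeartbeats 4000000

namespace CfsgLib.J4Cent82

/-- one generator moves the vectors as tabulated -/
noncomputable def moveOK (i : ℕ) (σ : List ℕ) : Bool :=
  inRange [i] && Nat.beq σ.length 77 && σ.all (fun j => j.blt 77) && (List.range 77).all fun h =>
    Nat.beq (comp (tabsOf [i]) (Tab.pts.getD h 0)) (Tab.pts.getD (σ.getD h 0) 0)

/-- the generators above the kernel move the vectors as tabulated -/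
noncomputable def moveGOK : Bool :=
  (List.range 4).all fun k => moveOK (Tab.ig.getD k 0) (Tab.g77.getD k [])

/-- the normal subgroup fixes the vectors -/
noncomputable def fixNOK : Bool :=
  (Tab.iz :: (Tab.iq ++ [Tab.iw])).all fun i => moveOK i (List.range 77)

theorem moveG_ok : moveGOK = true := by decide +kernel

theorem fixN_ok : fixNOK = true := by decide +kernel

theorem ptsRange_ok : (Tab.pts.all fun v => v.blt (2 ^ 112)) = true := by decide +kernel

end CfsgLib.J4Cent82
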