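import Cfsg.Agent.J4Cent82.Data
import Cfsg.Prelude.Def_Sporadic_a
import Cfsg.Agent.Eq.Def_Sporadic_a
import Mathlib.GroupTheory.GroupAction.Quotient
import Mathlib.GroupTheory.Index

/-!
The 77 six-sets on 22 points form a Steiner system, and the four permutations generate a group
of order at least 887040.
-/

set_option autoImplicit false
set_option maxRecDepth 100000
set_option maxHeartbeats 4000000

namespace CfsgLib.J4Cent82

/-- a bit of a six-set -/
def inHex (h : ℕ) (i : ℕ) : Bool := Nat.testBit (Tab.hexs.getD h 0) i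

/-- a six-set -/
def hexOf (h : ℕ) : Finset (Fin 22) := Finset.univ.filter fun i => inHex h i = true

/-- the family of six-sets -/
def hexFam : Set (Finset (Fin 22)) := Set.range fun h : Fin 77 => hexOf h

/-- a permutation given by its table -/
def permOf (l : List ℕ) : Equiv.Perm (Fin 22) :=
  let f : Fin 22 → Fin 22 := fun i => Fin.ofNat 22 (l.getD i 0)
  let g : Fin 22 → Fin 22 := fun i => Fin.ofNat 22 (l.idxOf (i : ℕ))
  if h : (∀ i, g (f i) = i) ∧ ∀ i, f (g i) = i then ⟨f, g, h.1, h.2⟩ else 1

/-- the four permutations -/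
def sig (k : ℕ) : Equiv.Perm (Fin 22) := permOf (Tab.g22.getD k [])

theorem sixes : ((List.range 77).all fun h =>
    Nat.beq ((List.range 22).filter (inHex h)).length 6) = true := by decide +kernel

theorem triples : ((List.range 22).all fun a => (List.range 22).all fun b => (List.range 22).all fun c =>
    !(decide (a < b) && decide (b < c)) ||
      Nat.beq ((List.range 77).filter fun h => inHex h a && inHex h b && inHex h c).length 1) = true := by
  decide +kernel

theorem sig_spec : ((List.range 4).all fun k => (List.range 77).all fun h => (List.range 22).all fun i =>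
    inHex ((Tab.g77.getD k []).getD h 0) (sig k (Fin.ofNat 22 i)) == inHex h i) = true := by
  decide +kernel

theorem separates : ((List.range 22).all fun i => (List.range 22).all fun j =>
    Nat.beq i j || (List.range 77).any fun h => inHex h i && !inHex h j) = true := by decide +kernel

theorem card_hexOf {h : ℕ} (hh : h < 77) : (hexOf h).card = 6 := by
  have h1 := Nat.eq_of_beq_eq_true (List.all_eq_true.1 sixes h (List.mem_range.2 hh))
  rw [hexOf, ← h1, ← List.toFinset_card_of_nodup (List.nodup_range.filter _),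
    ← Finset.card_map Fin.valEmbedding]
  congr 1
  ext i
  simp only [Finset.mem_map, Finset.mem_filter, Finset.mem_univ, true_and, List.mem_toFinset,
    List.mem_filter, List.mem_range, Fin.valEmbedding_apply]
  constructor
  · rintro ⟨a, ha, rfl⟩
    exact ⟨a.2, ha⟩
  · rintro ⟨hi, ha⟩
    exact ⟨⟨i, hi⟩, ha, rfl⟩

theorem hexFam_steiner : Cfsg.IsSteinerSystem 3 6 hexFam := by
  refine ⟨?_, fun s hs => ?_⟩
  · rintro _ ⟨h, rfl⟩
    exact card_hexOf h.2
  have key : ∀ a b c : Fin 22, a < b → b < c →
      ∃! B, B ∈ hexFam ∧ ({a, b, c} : Finset (Fin 22)) ⊆ B := by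
    intro a b c hab hbc
    have h0 := List.all_eq_true.1 (List.all_eq_true.1 (List.all_eq_true.1 triples a
      (List.mem_range.2 a.2)) b (List.mem_range.2 b.2)) c (List.mem_range.2 c.2)
    have e1 : decide ((a : ℕ) < b) = true := decide_eq_true hab
    have e2 : decide ((b : ℕ) < c) = true := decide_eq_true hbc
    rw [e1, e2] at h0
    simp only [Bool.and_self, Bool.not_true, Bool.false_or] at h0
    obtain ⟨h, hh⟩ := List.length_eq_one_iff.1 (Nat.eq_of_beq_eq_true h0)
    have hin : ∀ x, x < 77 ∧ (inHex x a && inHex x b && inHex x c) = true ↔ x = h := fun x => by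
      have e := List.mem_filter (as := List.range 77)
        (p := fun h => inHex h a && inHex h b && inHex h c) (x := x)
      rw [hh, List.mem_singleton, List.mem_range] at e
      exact e.symm
    obtain ⟨hlt, hb⟩ := (hin h).2 rfl
    refine ⟨hexOf h, ⟨⟨⟨h, hlt⟩, rfl⟩, ?_⟩, ?_⟩
    · simp only [Bool.and_eq_true] at hb
      intro x hx
      simp only [Finset.mem_insert, Finset.mem_singleton] at hx
      rw [hexOf, Finset.mem_filter]
      rcases hx with rfl | rfl | rfl
      exacts [⟨Finset.mem_univ _, hb.1.1⟩, ⟨Finset.mem_univ _, hb.1.2⟩, ⟨Finset.mem_univ _, hb.2⟩]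
    · rintro _ ⟨⟨x, rfl⟩, hx⟩
      have hm : ∀ y ∈ ({a, b, c} : Finset (Fin 22)), inHex x y = true := fun y hy =>
        (Finset.mem_filter.1 (hx hy)).2
      have := (hin x).1 ⟨x.2, by rw [hm a (by simp), hm b (by simp), hm c (by simp)]; rfl⟩
      simp [this]
  obtain ⟨a, b, c, hab, hac, hbc, rfl⟩ := Finset.card_eq_three.1 hs
  have hperm : ∀ x y z : Fin 22, x < y → y < z → ({a, b, c} : Finset (Fin 22)) = {x, y, z} →
      ∃! B, B ∈ hexFam ∧ ({a, b, c} : Finset (Fin 22)) ⊆ B := fun x y z hxy hyz e => e ▸ key x y z hxy hyz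
  rcases hab.lt_or_gt with h1 | h1 <;> rcases hbc.lt_or_gt with h2 | h2 <;>
    rcases hac.lt_or_gt with h3 | h3
  · exact hperm a b c h1 h2 rfl
  · exact absurd (h1.trans h2) h3.asymm
  · exact hperm a c b h3 h2 (by ext; simp; tauto)
  · exact hperm c a b h3 h1 (by ext; simp; tauto)
  · exact hperm b a c h1 h3 (by ext; simp; tauto)
  · exact hperm b c a h2 h3 (by ext; simp; tauto)
  · exact absurd (h2.trans h1) h3.asymm
  · exact hperm c b a h2 h1 (by ext; simp; tauto)

theorem hexOf_image {k h : ℕ} (hk : k < 4) (hh : h < 77) :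
    hexOf ((Tab.g77.getD k []).getD h 0) = (hexOf h).image (sig k) := by
  ext j
  obtain ⟨i, rfl⟩ := (sig k).surjective j
  rw [(sig k).injective.mem_finset_image]
  have := List.all_eq_true.1 (List.all_eq_true.1 (List.all_eq_true.1 sig_spec k (List.mem_range.2 hk))
    h (List.mem_range.2 hh)) i (List.mem_range.2 i.2)
  rw [beq_iff_eq, show (Fin.ofNat 22 (i : ℕ)) = i from Fin.ext (Nat.mod_eq_of_lt i.2)] at this
  simp only [hexOf, Finset.mem_filter, Finset.mem_univ, true_and, this]

theorem eq_one_of_image {σ : Equiv.Perm (Fin 22)} (h : ∀ k < 77, hexOf k = (hexOf k).image σ) :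
    σ = 1 := by
  refine Equiv.ext fun i => ?_
  by_contra hne
  have h1 := List.all_eq_true.1 (List.all_eq_true.1 separates i (List.mem_range.2 i.2)) (σ i)
    (List.mem_range.2 (σ i).2)
  simp only [Bool.or_eq_true, List.any_eq_true, List.mem_range, Bool.and_eq_true,
    Bool.not_eq_true'] at h1
  rcases h1 with e | ⟨k, hk, hi, hj⟩
  · exact hne (Fin.ext (Nat.eq_of_beq_eq_true e)).symm
  · have : σ i ∈ hexOf k := by
      rw [h k hk]
      exact Finset.mem_image_of_mem _ (Finset.mem_filter.2 ⟨Finset.mem_univ _, hi⟩)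
    rw [hexOf, Finset.mem_filter] at this
    simp [hj] at this

/-- the product of a word in the four permutations -/
def sigWord (w : List ℕ) : Equiv.Perm (Fin 22) := (w.map sig).prod

/-- a stabiliser chain is valid -/
def chainOK : List (ℕ × List (ℕ × List ℕ)) → List ℕ → Bool
  | [], _ => true
  | (b, tr) :: rest, fixd =>
    decide ((tr.map Prod.fst).Nodup) && (tr.all fun e => e.2.all (fun k => decide (k < 4)) &&
      decide (e.1 < 22) && Nat.beq (sigWord e.2 (Fin.ofNat 22 b) : ℕ) e.1 &&
        fixd.all fun a => decide (sigWord e.2 (Fin.ofNat 22 a) = Fin.ofNat 22 a)) &&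
      chainOK rest (b :: fixd)

/-- the product of the orbit lengths -/
def chainSize : List (ℕ × List (ℕ × List ℕ)) → ℕ
  | [] => 1
  | (_, tr) :: rest => tr.length * chainSize rest

theorem chain_ok : chainOK Tab.chain [] = true := by decide +kernel

theorem chain_size : chainSize Tab.chain = 887040 := by decide +kernel

theorem chainSize_le : ∀ (L : List (ℕ × List (ℕ × List ℕ))) (fixd : List ℕ),
    chainOK L fixd = true → ∀ H : Subgroup (Equiv.Perm (Fin 22)),
    (∀ w : List ℕ, (∀ k ∈ w, k < 4) →
      (∀ a ∈ fixd, sigWord w (Fin.ofNat 22 a) = Fin.ofNat 22 a) → sigWord w ∈ H) →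
    chainSize L ≤ Nat.card H
  | [], _, _, H, _ => Nat.card_pos
  | (b, tr) :: rest, fixd, h, H, hH => by
    simp only [chainOK, Bool.and_eq_true, List.all_eq_true, decide_eq_true_eq] at h
    obtain ⟨⟨hnd, htr⟩, hrest⟩ := h
    set pb : Fin 22 := Fin.ofNat 22 b
    have horb : tr.length ≤ Nat.card (MulAction.orbit H pb) := by
      rw [← List.length_map (f := Prod.fst) (as := tr), ← List.toFinset_card_of_nodup hnd,
        ← Nat.card_eq_finsetCard]
      have hex : ∀ x ∈ (tr.map Prod.fst).toFinset, ∃ y : MulAction.orbit H pb,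
          ((y : Fin 22) : ℕ) = x := by
        intro x hx
        obtain ⟨e, he, rfl⟩ := List.mem_map.1 (List.mem_toFinset.1 hx)
        obtain ⟨⟨⟨hw, hlt⟩, hb⟩, hf⟩ := htr e he
        exact ⟨⟨sigWord e.2 pb, ⟨⟨sigWord e.2, hH _ hw hf⟩, rfl⟩⟩, Nat.eq_of_beq_eq_true hb⟩
      choose f hf using hex
      refine Nat.card_le_card_of_injective (fun x => f x.1 x.2) fun x y hxy => Subtype.ext ?_
      rw [← hf x.1 x.2, ← hf y.1 y.2]
      exact congrArg (fun z : MulAction.orbit H pb => ((z : Fin 22) : ℕ)) hxy
    have hst : chainSize rest ≤ Nat.card (MulAction.stabilizer H pb) := by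
      refine (chainSize_le rest _ hrest ((MulAction.stabilizer H pb).map H.subtype) ?_).trans
        (le_of_eq (Subgroup.card_map_of_injective H.subtype_injective))
      intro w hw hfix
      exact ⟨⟨sigWord w, hH w hw fun a ha => hfix a (List.mem_cons_of_mem _ ha)⟩,
        hfix b List.mem_cons_self, rfl⟩
    calc chainSize ((b, tr) :: rest) = tr.length * chainSize rest := rfl
      _ ≤ Nat.card (MulAction.orbit H pb) * Nat.card (MulAction.stabilizer H pb) :=
        Nat.mul_le_mul horb hst
      _ = Nat.card H := by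
        rw [← Nat.card_prod]
        exact Nat.card_congr (MulAction.orbitProdStabilizerEquivGroup H pb)

theorem card_range_ge {H : Subgroup (Equiv.Perm (Fin 22))} (h : ∀ k < 4, sig k ∈ H) :
    887040 ≤ Nat.card H := by
  rw [← chain_size]
  refine chainSize_le _ _ chain_ok H fun w hw _ => list_prod_mem fun x hx => ?_
  obtain ⟨k, hk, rfl⟩ := List.mem_map.1 hx
  exact h k (hw k hk)

end CfsgLib.J4Cent82
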