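import Cfsg.Agent.J4Cent82.Extraspecial
import Cfsg.Agent.J4Cent82.ActChecks
import Cfsg.Agent.J4Cent82.Hexads
import Cfsg.Agent.S0414

/-!
The named elements permute 77 vectors, labelled by the six-sets of a Steiner system on 22 points.
-/

set_option autoImplicit false
set_option maxRecDepth 100000

namespace CfsgLib.J4Cent82

open CfsgLib.J4Rep112
open scoped Pointwise

variable (hinj : Function.Injective rep)

/-- one of the 77 vectors -/
def vecOf (h : ℕ) : Vec := ⟨Tab.pts.getD h 0 % 2 ^ 112, Nat.mod_lt _ (Nat.two_pow_pos _)⟩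

theorem pts_len : Tab.pts.length = 77 := by decide +kernel

theorem pts_nodup : Tab.pts.Nodup := by decide +kernel

theorem vecOf_val {h : ℕ} (hh : h < 77) : (vecOf h : ℕ) = Tab.pts.getD h 0 := by
  refine Nat.mod_eq_of_lt ?_
  rw [List.getD_eq_getElem _ _ (pts_len ▸ hh)]
  have := List.all_eq_true.1 ptsRange_ok _ (List.getElem_mem (pts_len.symm ▸ hh))
  simpa [Nat.blt] using this

theorem vecOf_inj {h h' : Fin 77} (e : vecOf h = vecOf h') : h = h' := by
  have e' := congrArg Subtype.val e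
  rw [vecOf_val h.2, vecOf_val h'.2, List.getD_eq_getElem _ _ (pts_len.symm ▸ h.2),
    List.getD_eq_getElem _ _ (pts_len.symm ▸ h'.2)] at e'
  exact Fin.ext ((pts_nodup.getElem_inj_iff).1 e')

/-- the pairs that act compatibly on the vectors and on the six-sets -/
def actRel : Subgroup (Cfsg.Spor.J4 × Equiv.Perm (Fin 22)) where
  carrier := {a | ∀ h : Fin 77, ∃ h' : Fin 77,
    rep a.1 (vecOf h) = vecOf h' ∧ hexOf h' = (hexOf h).image a.2}
  one_mem' h := ⟨h, by simp, by simp⟩
  mul_mem' := by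
    intro a b ha hb h
    obtain ⟨h1, e1, f1⟩ := hb h
    obtain ⟨h2, e2, f2⟩ := ha h1
    refine ⟨h2, ?_, ?_⟩
    · rw [Prod.fst_mul, map_mul, Equiv.Perm.mul_apply, e1, e2]
    · rw [f2, f1, Finset.image_image]
      rfl
  inv_mem' := by
    intro a ha h
    choose f hf using ha
    have hfi : Function.Injective f := fun x y e =>
      vecOf_inj ((rep a.1).injective (by rw [(hf x).1, (hf y).1, e]))
    obtain ⟨g, rfl⟩ := (Finite.injective_iff_surjective.1 hfi) h
    refine ⟨g, ?_, ?_⟩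
    · rw [Prod.fst_inv, map_inv, Equiv.Perm.inv_def, Equiv.symm_apply_eq, (hf g).1]
    · rw [(hf g).2, Finset.image_image]
      refine (Finset.image_id.symm.trans (Finset.image_congr fun x _ => ?_))
      simp

/-- the permutation attached to a named element -/
def sigEl (i : ℕ) : Equiv.Perm (Fin 22) :=
  if i ∈ Tab.ig then sig (Tab.ig.idxOf i) else 1

theorem mem_of_moveOK {i : ℕ} {t : List ℕ} {σ : Equiv.Perm (Fin 22)} (hm : moveOK i t = true)
    (hσ : ∀ h < 77, hexOf (t.getD h 0) = (hexOf h).image σ) : (el i, σ) ∈ actRel := by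
  simp only [moveOK, Bool.and_eq_true, List.all_eq_true, List.mem_range] at hm
  obtain ⟨⟨⟨hr, hlen⟩, hlt⟩, hmove⟩ := hm
  intro h
  have hl : t.length = 77 := Nat.eq_of_beq_eq_true hlen
  have hh : t.getD h 0 < 77 := by
    have hi : (h : ℕ) < t.length := by rw [hl]; exact h.2
    rw [List.getD_eq_getElem _ _ hi]
    simpa [Nat.blt] using hlt _ (List.getElem_mem hi)
  refine ⟨⟨_, hh⟩, Subtype.ext ?_, hσ h h.2⟩
  have := (rep_prodEl hr).2 (vecOf h)
  rw [prodEl_one, vecOf_val h.2, Nat.eq_of_beq_eq_true (hmove h h.2)] at this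
  rw [this, vecOf_val hh]

theorem gen_mem_actRel {i : ℕ} (hi : i ∈ allGens) : (el i, sigEl i) ∈ actRel := by
  rcases List.mem_cons.1 hi with rfl | hi'
  · have h := List.all_eq_true.1 fixN_ok Tab.iz List.mem_cons_self
    rw [sigEl, if_neg (by decide)]
    refine mem_of_moveOK h fun k hk => ?_
    rw [List.getD_eq_getElem _ _ (by simpa using hk), List.getElem_range]
    simp
  by_cases hg : i ∈ Tab.ig
  · rw [sigEl, if_pos hg]
    obtain ⟨k, hk, rfl⟩ := List.getElem_of_mem hg
    have hk4 : k < 4 := hk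
    have h := List.all_eq_true.1 moveG_ok k (List.mem_range.2 hk4)
    rw [List.getD_eq_getElem _ _ hk] at h
    rw [List.Nodup.idxOf_getElem (by decide) k hk]
    exact mem_of_moveOK h fun h' hh => hexOf_image hk4 hh
  · have hmem : i ∈ Tab.iz :: (Tab.iq ++ [Tab.iw]) := by
      rw [List.append_assoc, List.mem_append] at hi'
      exact List.mem_cons_of_mem _ (hi'.resolve_left hg)
    have h := List.all_eq_true.1 fixN_ok i hmem
    rw [sigEl, if_neg hg]
    refine mem_of_moveOK h fun k hk => ?_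
    rw [List.getD_eq_getElem _ _ (by simpa using hk), List.getElem_range]
    simp

theorem snd_eq_one {σ : Equiv.Perm (Fin 22)} (h : ((1 : Cfsg.Spor.J4), σ) ∈ actRel) : σ = 1 := by
  refine eq_one_of_image fun k hk => ?_
  obtain ⟨k', e1, e2⟩ := h ⟨k, hk⟩
  simp only [map_one, Equiv.Perm.one_apply] at e1
  obtain rfl := vecOf_inj (h := ⟨k, hk⟩) e1
  exact e2

theorem actRel_unique {g : Cfsg.Spor.J4} {σ τ : Equiv.Perm (Fin 22)} (h1 : (g, σ) ∈ actRel)
    (h2 : (g, τ) ∈ actRel) : σ = τ := by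
  have h := mul_mem (inv_mem h1) h2
  rw [Prod.inv_mk, Prod.mk_mul_mk, inv_mul_cancel] at h
  exact inv_mul_eq_one.1 (snd_eq_one h)

theorem exists_act (x : cGrp) : ∃ σ, ((x : Cfsg.Spor.J4), σ) ∈ actRel := by
  have : cGrp ≤ actRel.map (MonoidHom.fst _ _) := by
    refine (Subgroup.closure_le _).2 ?_
    rintro _ ⟨i, hi, rfl⟩
    exact ⟨(el i, sigEl i), gen_mem_actRel hi, rfl⟩
  obtain ⟨⟨g, σ⟩, hm, he⟩ := this x.2
  exact ⟨σ, (show g = (x : Cfsg.Spor.J4) from he) ▸ hm⟩

/-- the action on the 22 points -/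
noncomputable def act : cGrp →* Equiv.Perm (Fin 22) :=
  MonoidHom.mk' (fun x => (exists_act x).choose) fun x y =>
    actRel_unique (exists_act (x * y)).choose_spec
      (mul_mem (exists_act x).choose_spec (exists_act y).choose_spec)

theorem act_spec (x : cGrp) : ((x : Cfsg.Spor.J4), act x) ∈ actRel := (exists_act x).choose_spec

theorem act_el {i : ℕ} (hi : i ∈ allGens) : act ⟨el i, el_mem_cGrp hi⟩ = sigEl i :=
  actRel_unique (act_spec _) (gen_mem_actRel hi)

theorem act_mem_aut (x : cGrp) : act x ∈ Cfsg.setSystemAut hexFam := by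
  refine CfsgLib.DesignUnique.mem_aut_iff.2 ?_
  rintro _ ⟨h, rfl⟩
  obtain ⟨h', -, e⟩ := act_spec x h
  exact ⟨h', e⟩

theorem sig_mem_range {k : ℕ} (hk : k < 4) : sig k ∈ act.range := by
  have hi : Tab.ig.getD k 0 ∈ allGens := by interval_cases k <;> decide
  refine ⟨⟨_, el_mem_cGrp hi⟩, ?_⟩
  rw [act_el hi, sigEl]
  interval_cases k <;> rfl

theorem range_act : act.range = Cfsg.setSystemAut hexFam := by
  refine Subgroup.eq_of_le_of_card_ge ?_ ?_
  · rintro _ ⟨x, rfl⟩
    exact act_mem_aut x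
  · rw [(Cfsg.Agent.S0414.result (Fintype.card_fin 22) hexFam_steiner).1]
    exact card_range_ge fun k hk => sig_mem_range hk

theorem act_eq_one_of_mem_nGrp {x : cGrp} (hx : (x : Cfsg.Spor.J4) ∈ nGrp) : act x = 1 := by
  have key : ∀ {i : ℕ} (hi : i ∈ allGens), i ∉ Tab.ig → (⟨el i, el_mem_cGrp hi⟩ : cGrp) ∈ act.ker := by
    intro i hi hn
    rw [MonoidHom.mem_ker, act_el hi, sigEl, if_neg hn]
  have h : nGrp ≤ act.ker.map cGrp.subtype := by
    refine sup_le (qSub_le ?_ 12 fun j hj => ?_) (Subgroup.zpowers_le.2 ?_)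
    · exact ⟨_, key (i := Tab.iz) List.mem_cons_self (by decide), rfl⟩
    · exact ⟨_, key (qi_mem hj) (by interval_cases j <;> decide), rfl⟩
    · exact ⟨_, key (i := Tab.iw) (by simp [allGens]) (by decide), rfl⟩
  obtain ⟨y, hy, e⟩ := h hx
  rw [← Subtype.ext e]
  exact hy

include hinj in
theorem card_cGrp_ge : 21799895040 ≤ Nat.card cGrp := by
  haveI := finite_j4 hinj
  rw [← act.ker.card_mul_index, Subgroup.index_ker, range_act,
    (Cfsg.Agent.S0414.result (Fintype.card_fin 22) hexFam_steiner).1]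
  have h : nGrp.subgroupOf cGrp ≤ act.ker := fun x hx => act_eq_one_of_mem_nGrp hx
  have h2 := Subgroup.card_le_of_le h
  rw [Nat.card_congr (Subgroup.subgroupOfEquivOfLe nGrp_le_cGrp).toEquiv, card_nGrp hinj] at h2
  omega

end CfsgLib.J4Cent82
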