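import Cfsg.Agent.J4Rep112.Basic
import Cfsg.Agent.J4Cent82.Data

/-!
Boolean checks on straight-line products of matrices over two elements.
-/

set_option autoImplicit false
set_option maxRecDepth 100000

namespace CfsgLib.J4Cent82

open CfsgLib.J4Rep112

/-- one summand of a table entry -/
def pick (T i a : ℕ) : ℕ := cond (Nat.testBit a i) (entry T (2 ^ i)) 0

/-- each table is given by its values at the four single bits -/
def basisOK (M : List ℕ) : Bool :=
  M.all fun T => (List.range 16).all fun a =>
    Nat.beq (entry T a) (Nat.xor (pick T 0 a) (Nat.xor (pick T 1 a) (Nat.xor (pick T 2 a) (pick T 3 a))))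

theorem pick_xor (T i a b : ℕ) : pick T i (a ^^^ b) = pick T i a ^^^ pick T i b := by
  simp only [pick, Nat.testBit_xor]
  cases Nat.testBit a i <;> cases Nat.testBit b i <;> simp

theorem addOK_of_basisOK {M : List ℕ} (h : basisOK M = true) : addOK M = true := by
  simp only [addOK, List.all_eq_true, List.mem_range]
  simp only [basisOK, List.all_eq_true, List.mem_range] at h
  intro T hT a ha b hb
  have key : ∀ c < 16, entry T c = pick T 0 c ^^^ (pick T 1 c ^^^ (pick T 2 c ^^^ pick T 3 c)) :=
    fun c hc => Nat.eq_of_beq_eq_true (h T hT c hc)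
  have hab : a ^^^ b < 2 ^ 4 := Nat.xor_lt_two_pow (by simpa using ha) (by simpa using hb)
  rw [key _ (by simpa using hab), key a ha, key b hb, pick_xor, pick_xor, pick_xor, pick_xor]
  refine Eq.mpr (congrArg (fun x => Nat.beq x _ = true) ?_) (Nat.beq_refl _)
  ac_rfl

/-- all matrices -/
def allMats : List (List ℕ) := mats ++ Tab.stepMats

/-- a product of tables applied to a bit mask -/
noncomputable def comp (Ts : List (List ℕ)) (v : ℕ) : ℕ :=
  List.rec (motive := fun _ => ℕ) v (fun T _ r => vm T r) Ts

theorem comp_cons (T : List ℕ) (Ts : List (List ℕ)) (v : ℕ) :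
    comp (T :: Ts) v = vm T (comp Ts v) := rfl

/-- the tables of a list of named elements -/
def tabsOf (ps : List ℕ) : List (List ℕ) := ps.map fun i => allMats.getD i []

/-- every step is the product of its parents -/
noncomputable def stepOK (k : ℕ) : Bool :=
  basisOK (Tab.stepMats.getD k []) && (Tab.steps.getD k []).all (fun p => p.blt (6 + k)) &&
    (List.range 112).all fun i =>
      Nat.beq (vm (Tab.stepMats.getD k []) (2 ^ i)) (comp (tabsOf (Tab.steps.getD k [])) (2 ^ i))

/-- all indices name elements -/
def inRange (ps : List ℕ) : Bool := ps.all fun p => p.blt allMats.length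

/-- two products act in the same way -/
noncomputable def eqOn (ps qs : List ℕ) : Bool :=
  inRange ps && inRange qs && (List.range 112).all fun i =>
    Nat.beq (comp (tabsOf ps) (2 ^ i)) (comp (tabsOf qs) (2 ^ i))

end CfsgLib.J4Cent82
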