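import Cfsg.Agent.J4Cent82.Group
import Mathlib.Algebra.BigOperators.Pi
import Mathlib.Data.ZMod.Basic
import Mathlib.GroupTheory.SpecificGroups.Cyclic

/-!
The subgroup generated by the twelve elements is extraspecial of order `2 ^ 13`; with the element
of order three it has order `3 * 2 ^ 13`.
-/

set_option autoImplicit false
set_option maxRecDepth 100000

namespace CfsgLib.J4Cent82

open CfsgLib.J4Rep112
open scoped commutatorElement Pointwise

variable (hinj : Function.Injective rep)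

theorem card_sup_zpowers_le {G : Type*} [Group G] [Finite G] {H : Subgroup G} {q : G} {n : ℕ}
    (hn : 0 < n) (hq : q ∈ Subgroup.normalizer (H : Set G)) (hpow : q ^ n ∈ H) :
    Nat.card (H ⊔ Subgroup.zpowers q : Subgroup G) ≤ n * Nat.card H := by
  have hset : ((H ⊔ Subgroup.zpowers q : Subgroup G) : Set G) =
      (H : Set G) * (Subgroup.zpowers q : Set G) :=
    Subgroup.coe_mul_of_right_le_normalizer_left H _ (Subgroup.zpowers_le.2 hq)
  let f : H × Fin n → G := fun a => (a.1 : G) * q ^ (a.2 : ℕ)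
  have hsub : ((H ⊔ Subgroup.zpowers q : Subgroup G) : Set G) ⊆ Set.range f := by
    rw [hset]
    rintro _ ⟨h, hh, p, hp, rfl⟩
    obtain ⟨k, rfl⟩ := mem_powers_iff_mem_zpowers.2 hp
    refine ⟨(⟨h * (q ^ n) ^ (k / n), mul_mem hh (pow_mem hpow _)⟩, ⟨k % n, Nat.mod_lt _ hn⟩), ?_⟩
    show h * (q ^ n) ^ (k / n) * q ^ (k % n) = h * q ^ k
    rw [mul_assoc, ← pow_mul, ← pow_add, Nat.div_add_mod]
  calc Nat.card (H ⊔ Subgroup.zpowers q : Subgroup G)
      ≤ (Set.range f).ncard := Set.ncard_le_ncard hsub (Set.finite_range f)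
    _ ≤ Nat.card (H × Fin n) := (Nat.card_coe_set_eq _).symm.trans_le (Finite.card_range_le f)
    _ = n * Nat.card H := by rw [Nat.card_prod, Nat.card_fin, mul_comm]

include hinj in
theorem order_z : orderOf zEl = 2 := by
  refine orderOf_eq_prime ?_ (z_facts hinj).2.1
  rw [pow_two]
  exact (z_facts hinj).1

include hinj in
theorem order_w : orderOf wEl = 3 :=
  orderOf_eq_prime (z_facts hinj).2.2.1 (z_facts hinj).2.2.2.1

include hinj in
theorem card_qSub_le : ∀ {k : ℕ}, k ≤ 12 → Nat.card (qSub k) ≤ 2 ^ (k + 1)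
  | 0, _ => le_of_eq (by rw [qSub, Nat.card_zpowers, order_z hinj]; rfl)
  | k + 1, hk => by
    haveI := finite_j4 hinj
    have hk' : k < 12 := hk
    refine (card_sup_zpowers_le two_pos ?_ ?_).trans ?_
    · refine mem_normalizer_of_map_le fun x hx => ?_
      have : qSub k ≤ (qSub k).comap (MulAut.conj (qEl k)).toMonoidHom := by
        refine qSub_le ?_ k fun j hj => ?_
        · show qEl k * zEl * (qEl k)⁻¹ ∈ qSub k
          rw [z_comm_q hinj hk', mul_inv_cancel_right]
          exact z_mem_qSub k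
        · show qEl k * qEl j * (qEl k)⁻¹ ∈ qSub k
          rw [(q_pattern hinj hk' (hj.trans hk')).2]
          split
          · rw [mul_assoc (qEl j), z_comm_q hinj hk',
              show qEl j * (zEl * qEl k) * (qEl k)⁻¹ = qEl j * zEl by group]
            exact mul_mem (q_mem_qSub hj) (z_mem_qSub k)
          · rw [mul_inv_cancel_right]
            exact q_mem_qSub hj
      exact this hx
    · rw [pow_two]
      rcases (q_pattern hinj hk' hk').1 with e | e <;> rw [e]
      exacts [one_mem _, z_mem_qSub k]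
    · calc 2 * Nat.card (qSub k) ≤ 2 * 2 ^ (k + 1) := Nat.mul_le_mul le_rfl (card_qSub_le hk'.le)
        _ = 2 ^ (k + 1 + 1) := by rw [pow_succ _ (k + 1)]; ring

/-- the elements commuting with the generators up to the involution -/
def bilGrp : Subgroup Cfsg.Spor.J4 where
  carrier := {x | x * zEl = zEl * x ∧
    ∀ j < 12, ∃ e ∈ Subgroup.zpowers zEl, x * qEl j = qEl j * x * e}
  one_mem' := ⟨by simp, fun j _ => ⟨1, one_mem _, by simp⟩⟩
  mul_mem' := by
    rintro x y ⟨hx, hx'⟩ ⟨hy, hy'⟩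
    refine ⟨by rw [mul_assoc, hy, ← mul_assoc, hx, mul_assoc], fun j hj => ?_⟩
    obtain ⟨e, he, h1⟩ := hx' j hj
    obtain ⟨e', he', h2⟩ := hy' j hj
    obtain ⟨m, rfl⟩ := he
    refine ⟨zEl ^ m * e', mul_mem ⟨m, rfl⟩ he', ?_⟩
    have hc : Commute (zEl ^ m) y := (Commute.zpow_left (show Commute zEl y from hy.symm) m)
    rw [mul_assoc x, h2, ← mul_assoc, ← mul_assoc, h1, mul_assoc (qEl j * x), hc.eq]
    group
  inv_mem' := by
    rintro x ⟨hx, hx'⟩
    have hc : Commute x zEl := hx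
    refine ⟨hc.inv_left.eq, fun j hj => ?_⟩
    obtain ⟨e, ⟨m, rfl⟩, h1⟩ := hx' j hj
    refine ⟨zEl ^ (-m), ⟨-m, rfl⟩, ?_⟩
    have h2 : qEl j * x = x * qEl j * zEl ^ (-m) := by rw [h1]; group
    calc x⁻¹ * qEl j = x⁻¹ * (qEl j * x) * x⁻¹ := by group
      _ = qEl j * (zEl ^ (-m) * x⁻¹) := by rw [h2]; group
      _ = qEl j * (x⁻¹ * zEl ^ (-m)) := by rw [((hc.symm.zpow_left (-m)).inv_right).eq]
      _ = qEl j * x⁻¹ * zEl ^ (-m) := by group

include hinj in
theorem qGrp_le_bil : qGrp ≤ bilGrp := by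
  refine qSub_le (H := bilGrp) ⟨rfl, fun j hj => ⟨1, one_mem _, ?_⟩⟩ 12 fun i hi =>
    ⟨z_comm_q hinj hi, fun j hj => ?_⟩
  · rw [mul_one, z_comm_q hinj hj]
  · rw [(q_pattern hinj hi hj).2]
    split
    · exact ⟨zEl, Subgroup.mem_zpowers _, rfl⟩
    · exact ⟨1, one_mem _, (mul_one _).symm⟩

include hinj in
theorem bil_cases {x : Cfsg.Spor.J4} (hx : x ∈ qGrp) {j : ℕ} (hj : j < 12) :
    x * qEl j = qEl j * x ∨ x * qEl j = qEl j * x * zEl := by
  haveI := finite_j4 hinj
  obtain ⟨e, he, h⟩ := (qGrp_le_bil hinj hx).2 j hj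
  obtain ⟨k, rfl⟩ := mem_powers_iff_mem_zpowers.2 he
  simp only at h
  rcases Nat.even_or_odd k with ⟨m, rfl⟩ | ⟨m, rfl⟩
  · left
    rwa [← two_mul, pow_mul, pow_two, (z_facts hinj).1, one_pow, mul_one] at h
  · right
    rwa [pow_succ, pow_mul, pow_two, (z_facts hinj).1, one_pow, one_mul] at h

open Classical in
/-- the commutator form with the generators -/
noncomputable def phiQ : qGrp →* Multiplicative (Fin 12 → ZMod 2) :=
  if h : ∀ x y : qGrp, (Multiplicative.ofAdd fun j : Fin 12 =>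
      if ((x * y : qGrp) : Cfsg.Spor.J4) * qEl j = qEl j * (x * y : qGrp) then (0 : ZMod 2) else 1) =
      Multiplicative.ofAdd (fun j : Fin 12 =>
        if (x : Cfsg.Spor.J4) * qEl j = qEl j * x then (0 : ZMod 2) else 1) *
      Multiplicative.ofAdd (fun j : Fin 12 =>
        if (y : Cfsg.Spor.J4) * qEl j = qEl j * y then (0 : ZMod 2) else 1) then
    MonoidHom.mk' (fun x => Multiplicative.ofAdd fun j : Fin 12 =>
      if (x : Cfsg.Spor.J4) * qEl j = qEl j * x then (0 : ZMod 2) else 1) h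
  else 1

include hinj in
open Classical in
theorem phiQ_apply (x : qGrp) (j : Fin 12) :
    Multiplicative.toAdd (phiQ x) j =
      if (x : Cfsg.Spor.J4) * qEl j = qEl j * x then (0 : ZMod 2) else 1 := by
  have hz : zEl ≠ 1 := (z_facts hinj).2.1
  rw [phiQ, dif_pos]
  · rfl
  intro x y
  rw [← ofAdd_add]
  congr 1
  funext j
  simp only [Subgroup.coe_mul, Pi.add_apply]
  have hzy : zEl * (y : Cfsg.Spor.J4) = y * zEl := ((qGrp_le_bil hinj y.2).1).symm
  have hne : ∀ a b : Cfsg.Spor.J4, a * b * zEl ≠ a * b := fun a b e =>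
    hz (mul_left_cancel (e.trans (mul_one _).symm))
  rcases bil_cases hinj x.2 j.2 with hx | hx <;> rcases bil_cases hinj y.2 j.2 with hy | hy
  · rw [if_pos hx, if_pos hy, if_pos]
    · rw [add_zero]
    · rw [mul_assoc, hy, ← mul_assoc, hx, mul_assoc]
  · have hxy : (x : Cfsg.Spor.J4) * y * qEl j = qEl j * (x * y) * zEl := by
      rw [mul_assoc (x : Cfsg.Spor.J4), hy, ← mul_assoc, ← mul_assoc, hx]; group
    rw [if_pos hx, if_neg (show ¬ ((y : Cfsg.Spor.J4) * qEl j = qEl j * y) by rw [hy]; exact hne _ _), if_neg (show ¬ ((x : Cfsg.Spor.J4) * y * qEl j = qEl j * (x * y)) by rw [hxy]; exact hne _ _), zero_add]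
  · have hxy : (x : Cfsg.Spor.J4) * y * qEl j = qEl j * (x * y) * zEl := by
      rw [mul_assoc (x : Cfsg.Spor.J4), hy, ← mul_assoc, hx, mul_assoc (qEl j * _), hzy]; group
    rw [if_neg (show ¬ ((x : Cfsg.Spor.J4) * qEl j = qEl j * x) by rw [hx]; exact hne _ _), if_pos hy, if_neg (show ¬ ((x : Cfsg.Spor.J4) * y * qEl j = qEl j * (x * y)) by rw [hxy]; exact hne _ _), add_zero]
  · have hxy : (x : Cfsg.Spor.J4) * y * qEl j = qEl j * (x * y) := by
      rw [mul_assoc (x : Cfsg.Spor.J4), hy, ← mul_assoc, ← mul_assoc, hx,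
        show qEl j * (x : Cfsg.Spor.J4) * zEl * y * zEl = qEl j * (x * (zEl * y) * zEl) by group,
        hzy, show qEl j * ((x : Cfsg.Spor.J4) * (y * zEl) * zEl) =
          qEl j * (x * y) * (zEl * zEl) by group, (z_facts hinj).1, mul_one]
    rw [if_neg (show ¬ ((x : Cfsg.Spor.J4) * qEl j = qEl j * x) by rw [hx]; exact hne _ _), if_neg (show ¬ ((y : Cfsg.Spor.J4) * qEl j = qEl j * y) by rw [hy]; exact hne _ _), if_pos hxy]
    rfl

include hinj in
theorem phiQ_surjective : Function.Surjective phiQ := by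
  have hb : ∀ i : Fin 12, ∃ x, Multiplicative.toAdd (phiQ x) = Pi.single i (1 : ZMod 2) := by
    intro i
    have hk : (i : ℕ) ^^^ 1 < 12 := by
      obtain ⟨i, hi⟩ := i
      show i ^^^ 1 < 12
      interval_cases i <;> decide
    refine ⟨⟨qEl ((i : ℕ) ^^^ 1), q_mem_qSub hk⟩, funext fun j => ?_⟩
    rw [phiQ_apply hinj]
    have hp := (q_pattern hinj hk j.2).2
    simp only [Nat.xor_assoc, Nat.xor_self, Nat.xor_zero] at hp
    by_cases hij : (i : ℕ) = j
    · rw [if_pos hij] at hp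
      rw [if_neg, Fin.ext hij, Pi.single_eq_same]
      rw [hp]
      intro e
      exact (z_facts hinj).2.1 (mul_left_cancel (e.trans (mul_one _).symm))
    · rw [if_neg hij] at hp
      rw [if_pos hp, Pi.single_eq_of_ne]
      exact fun e => hij (congrArg Fin.val e.symm)
  have h01 : ∀ a : ZMod 2, a = 0 ∨ a = 1 := by decide
  intro f
  have hf : f ∈ (phiQ).range := by
    have : f = ∏ i : Fin 12,
        Multiplicative.ofAdd (Pi.single (M := fun _ => ZMod 2) i (Multiplicative.toAdd f i)) := by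
      rw [← ofAdd_sum, Finset.univ_sum_single]
      rfl
    rw [this]
    refine Subgroup.prod_mem _ fun i _ => ?_
    rcases h01 (Multiplicative.toAdd f i) with e | e <;> rw [e]
    · rw [Pi.single_zero]
      exact one_mem _
    · obtain ⟨x, hx⟩ := hb i
      exact ⟨x, by rw [← hx, ofAdd_toAdd]⟩
  exact hf

include hinj in
theorem q_card_ker : Nat.card qGrp = 2 ^ 13 ∧
    ∀ x : qGrp, phiQ x = 1 ↔ (x : Cfsg.Spor.J4) ∈ Subgroup.zpowers zEl := by
  haveI := finite_j4 hinj
  have hr : Nat.card (phiQ).range = 2 ^ 12 := by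
    rw [MonoidHom.range_eq_top.2 (phiQ_surjective hinj), Subgroup.card_top,
      Nat.card_congr (Multiplicative.toAdd), Nat.card_fun, Nat.card_zmod, Nat.card_fin]
  have hk : (Subgroup.zpowers zEl).subgroupOf qGrp ≤ (phiQ).ker := by
    intro x hx
    refine (MonoidHom.mem_ker).2 ?_
    refine Multiplicative.toAdd.injective (funext fun j => ?_)
    rw [phiQ_apply hinj, if_pos]
    · rfl
    obtain ⟨m, hm⟩ := Subgroup.mem_subgroupOf.1 hx
    rw [← hm]
    exact (((show Commute (qEl j) zEl from z_comm_q hinj j.2).zpow_right m).symm).eq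
  have hzc : Nat.card ((Subgroup.zpowers zEl).subgroupOf qGrp) = 2 := by
    rw [Nat.card_congr (Subgroup.subgroupOfEquivOfLe
      (Subgroup.zpowers_le.2 (show zEl ∈ qGrp from z_mem_qSub 12))).toEquiv, Nat.card_zpowers, order_z hinj]
  have hmul : Nat.card qGrp = Nat.card (phiQ).ker * 2 ^ 12 := by
    rw [← hr, ← (phiQ).ker.card_mul_index, Subgroup.index_ker]
  have h2 : 2 ≤ Nat.card (phiQ).ker := hzc.symm.trans_le (Subgroup.card_le_of_le hk)
  have h13 : Nat.card qGrp ≤ 2 ^ 13 := card_qSub_le hinj le_rfl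
  have hker : Nat.card (phiQ).ker = 2 := by
    rw [hmul] at h13
    omega
  refine ⟨by rw [hmul, hker]; norm_num, fun x => ?_⟩
  rw [← MonoidHom.mem_ker, ← Subgroup.eq_of_le_of_card_ge hk (by rw [hzc, hker]),
    Subgroup.mem_subgroupOf]

theorem zmod2_add : ∀ t : ZMod 2, t + t = 0 := by decide

include hinj in
theorem qGrp_extraspecial : Cfsg.IsExtraspecial 2 qGrp := by
  haveI := finite_j4 hinj
  haveI : Fact (Nat.Prime 2) := ⟨Nat.prime_two⟩
  obtain ⟨hcard, hker⟩ := q_card_ker hinj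
  have hcen : Subgroup.center qGrp = (Subgroup.zpowers zEl).subgroupOf qGrp := by
    ext x
    rw [Subgroup.mem_subgroupOf]
    constructor
    · intro hx
      refine (hker x).1 (Multiplicative.toAdd.injective (funext fun j => ?_))
      rw [phiQ_apply hinj, if_pos]
      · rfl
      exact (congrArg Subtype.val (Subgroup.mem_center_iff.1 hx ⟨qEl j, q_mem_qSub j.2⟩)).symm
    · rintro ⟨m, hm⟩
      rw [Subgroup.mem_center_iff]
      intro y
      refine Subtype.ext ?_
      rw [Subgroup.coe_mul, Subgroup.coe_mul, ← hm]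
      exact ((show Commute (y : Cfsg.Spor.J4) zEl from (qGrp_le_bil hinj y.2).1).zpow_right m).eq
  have hmem : ∀ x : qGrp, phiQ x = 1 → x ∈ Subgroup.center qGrp := fun x hx => by
    rw [hcen, Subgroup.mem_subgroupOf]
    exact (hker x).1 hx
  refine CfsgLib.PGroup.isExtraspecial_of (IsPGroup.of_card hcard) ?_ ?_ ?_ ?_
  · rw [hcen, Nat.card_congr (Subgroup.subgroupOfEquivOfLe
      (Subgroup.zpowers_le.2 (show zEl ∈ qGrp from z_mem_qSub 12))).toEquiv, Nat.card_zpowers, order_z hinj]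
  · refine ⟨⟨qEl 0, q_mem_qSub (by omega)⟩, ⟨qEl 1, q_mem_qSub (by omega)⟩, fun e => ?_⟩
    have h1 : qEl 0 * qEl 1 = qEl 1 * qEl 0 := congrArg Subtype.val e
    rw [(q_pattern hinj (i := 0) (j := 1) (by omega) (by omega)).2, if_pos (by decide)] at h1
    exact (z_facts hinj).2.1 (mul_left_cancel (h1.trans (mul_one _).symm))
  · intro a b
    refine hmem _ ?_
    rw [map_commutatorElement]
    exact commutatorElement_eq_one_iff_mul_comm.2 (mul_comm _ _)
  · intro a
    refine hmem _ ?_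
    rw [map_pow, pow_two]
    refine Multiplicative.toAdd.injective (funext fun j => ?_)
    exact zmod2_add _

include hinj in
theorem card_nGrp : Nat.card nGrp = 3 * 2 ^ 13 := by
  haveI := finite_j4 hinj
  have hle : Nat.card nGrp ≤ 3 * Nat.card qGrp :=
    card_sup_zpowers_le (by norm_num) (cGrp_le_normalizer_q hinj w_mem_cGrp)
      ((z_facts hinj).2.2.1 ▸ one_mem _)
  rw [(q_card_ker hinj).1] at hle
  have h1 : 2 ^ 13 ∣ Nat.card nGrp := (q_card_ker hinj).1 ▸ Subgroup.card_dvd_of_le le_sup_left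
  have h2 : 3 ∣ Nat.card nGrp := by
    have h := Subgroup.card_dvd_of_le (show Subgroup.zpowers wEl ≤ nGrp from le_sup_right)
    rwa [Nat.card_zpowers, order_w hinj] at h
  have h3 : 3 * 2 ^ 13 ∣ Nat.card nGrp := Nat.Coprime.mul_dvd_of_dvd_of_dvd (by norm_num) h2 h1
  exact le_antisymm hle (Nat.le_of_dvd Nat.card_pos h3)

end CfsgLib.J4Cent82
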