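import Cfsg.Agent.J4Cent82.RelDefs

/-! Kernel checks of the conjugation tables. -/

set_option autoImplicit false
set_option maxRecDepth 100000
set_option maxHeartbeats 4000000

namespace CfsgLib.J4Cent82

theorem conj0_ok : conjOK 0 = true := by decide +kernel

theorem conj1_ok : conjOK 1 = true := by decide +kernel

theorem conj2_ok : conjOK 2 = true := by decide +kernel

theorem conj3_ok : conjOK 3 = true := by decide +kernel

theorem conjW_ok : conjWOK = true := by decide +kernel

end CfsgLib.J4Cent82
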