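import Cfsg.Agent.J4Cent82.RelDefs

/-! Kernel checks of the first rows of the commutator pattern. -/

set_option autoImplicit false
set_option maxRecDepth 100000
set_option maxHeartbeats 4000000

namespace CfsgLib.J4Cent82

theorem pat0_ok : patRow 0 = true := by decide +kernel

theorem pat1_ok : patRow 1 = true := by decide +kernel

theorem pat2_ok : patRow 2 = true := by decide +kernel

theorem pat3_ok : patRow 3 = true := by decide +kernel

theorem pat4_ok : patRow 4 = true := by decide +kernel

theorem pat5_ok : patRow 5 = true := by decide +kernel

end CfsgLib.J4Cent82
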