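import Cfsg.Agent.J4Cent82.RelDefs

/-! Kernel checks of the last rows of the commutator pattern. -/

set_option autoImplicit false
set_option maxRecDepth 100000
set_option maxHeartbeats 4000000

namespace CfsgLib.J4Cent82

theorem pat6_ok : patRow 6 = true := by decide +kernel

theorem pat7_ok : patRow 7 = true := by decide +kernel

theorem pat8_ok : patRow 8 = true := by decide +kernel

theorem pat9_ok : patRow 9 = true := by decide +kernel

theorem pat10_ok : patRow 10 = true := by decide +kernel

theorem pat11_ok : patRow 11 = true := by decide +kernel

end CfsgLib.J4Cent82
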