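import Cfsg.Agent.J4Cent82.RelComm
import Cfsg.Agent.J4Cent82.RelConj
import Cfsg.Agent.J4Cent82.RelPat0
import Cfsg.Agent.J4Cent82.RelPat1
import Mathlib.Tactic.IntervalCases

/-!
Relations between the elements that generate the centraliser, checked in the representation.
-/

set_option autoImplicit false
set_option maxRecDepth 100000

namespace CfsgLib.J4Cent82

theorem zw_ok : zwOK = true := by
  rw [zwOK, Bool.and_eq_true]
  refine ⟨zwBase_ok, List.all_eq_true.2 fun i hi => ?_⟩
  obtain ⟨k, hk, rfl⟩ := List.getElem_of_mem hi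
  rw [← List.getD_eq_getElem _ 0 hk]
  have hk' : k < 18 := hk
  show commOK k = true
  interval_cases k
  exacts [comm0_ok, comm1_ok, comm2_ok, comm3_ok, comm4_ok, comm5_ok, comm6_ok, comm7_ok, comm8_ok, comm9_ok, comm10_ok, comm11_ok, comm12_ok, comm13_ok, comm14_ok, comm15_ok, comm16_ok, comm17_ok]

theorem pat_ok : patOK = true := by
  refine List.all_eq_true.2 fun i hi => ?_
  have hi' : i < 12 := List.mem_range.1 hi
  show patRow i = true
  interval_cases i
  exacts [pat0_ok, pat1_ok, pat2_ok, pat3_ok, pat4_ok, pat5_ok, pat6_ok, pat7_ok, pat8_ok, pat9_ok, pat10_ok, pat11_ok]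

end CfsgLib.J4Cent82
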