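import Cfsg.Agent.J4Cent82.Rep
import Cfsg.Agent.J4Cent82.RelChecks
import Cfsg.Agent.PGroup.Extraspecial
import Mathlib.GroupTheory.Index
import Mathlib.Tactic.IntervalCases

/-!
The extraspecial normal subgroup of order `2 ^ 13` and the normal subgroup of order `3 * 2 ^ 13`
of the subgroup generated by the named elements.
-/

set_option autoImplicit false
set_option maxRecDepth 100000

namespace CfsgLib.J4Cent82

open CfsgLib.J4Rep112
open scoped commutatorElement

variable (hinj : Function.Injective rep)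

include hinj in
theorem eq_of_eqOn {ps qs : List ℕ} (h : eqOn ps qs = true) : prodEl ps = prodEl qs :=
  hinj (rep_eq_of_eqOn h)

/-- the involution as a named element -/
def zEl : Cfsg.Spor.J4 := el Tab.iz

/-- the element of order three -/
def wEl : Cfsg.Spor.J4 := el Tab.iw

/-- the extraspecial generators -/
def qEl (k : ℕ) : Cfsg.Spor.J4 := el (qi k)

/-- the chain of subgroups generated by the first generators -/
def qSub : ℕ → Subgroup Cfsg.Spor.J4
  | 0 => Subgroup.zpowers zEl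
  | k + 1 => qSub k ⊔ Subgroup.zpowers (qEl k)

/-- the extraspecial subgroup -/
def qGrp : Subgroup Cfsg.Spor.J4 := qSub 12

/-- the subgroup of order `3 * 2 ^ 13` -/
def nGrp : Subgroup Cfsg.Spor.J4 := qGrp ⊔ Subgroup.zpowers wEl

/-- the subgroup generated by the named elements -/
def cGrp : Subgroup Cfsg.Spor.J4 := Subgroup.closure {g | ∃ i ∈ allGens, el i = g}

theorem prodEl_nil : prodEl [] = 1 := rfl

theorem prodEl_one (a : ℕ) : prodEl [a] = el a := by simp [prodEl]

theorem prodEl_two (a b : ℕ) : prodEl [a, b] = el a * el b := by simp [prodEl]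

theorem prodEl_append (ps : List ℕ) (a : ℕ) : prodEl (ps ++ [a]) = prodEl ps * el a := by
  simp [prodEl]

include hinj in
theorem z_facts : zEl * zEl = 1 ∧ zEl ≠ 1 ∧ wEl ^ 3 = 1 ∧ wEl ≠ 1 ∧
    ∀ i ∈ allGens, el i * zEl = zEl * el i := by
  have h := zw_ok
  simp only [zwOK, Bool.and_eq_true, Bool.not_eq_true', List.all_eq_true] at h
  obtain ⟨⟨⟨⟨⟨h1, h2⟩, h3⟩, h4⟩, h5⟩, h6⟩ := h
  have hr : ∀ a ∈ allGens, inRange [a] = true := fun a ha => by
    simp only [inRange, List.all_eq_true] at h5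
    simp only [inRange, List.all_cons, List.all_nil, Bool.and_true]
    exact h5 a ha
  have hne : ∀ a ∈ allGens, eqOn [a] [] = false → el a ≠ 1 := fun a ha hf e => by
    refine rep_ne_of_neOn (ps := [a]) (qs := []) ?_ (by rw [prodEl_one, prodEl_nil, e])
    simp only [neOn, hr a ha, hf]
    rfl
  refine ⟨?_, hne _ List.mem_cons_self h3, ?_, hne _ (by simp [allGens]) h4, fun i hi => ?_⟩
  · simpa [prodEl_two, prodEl_nil, zEl] using eq_of_eqOn hinj h1
  · have := eq_of_eqOn hinj h2
    simp only [prodEl, List.map_cons, List.map_nil, List.prod_cons, List.prod_nil, mul_one] at this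
    rw [pow_three]
    exact this
  · simpa [prodEl_two, zEl] using eq_of_eqOn hinj (h6 i hi)

theorem qi_mem {k : ℕ} (hk : k < 12) : qi k ∈ allGens := by
  interval_cases k <;> decide

theorem z_mem_qSub : ∀ k, zEl ∈ qSub k
  | 0 => Subgroup.mem_zpowers _
  | k + 1 => Subgroup.mem_sup_left (z_mem_qSub k)

theorem q_mem_qSub : ∀ {k j : ℕ}, j < k → qEl j ∈ qSub k
  | k + 1, j, h => by
    rcases Nat.lt_succ_iff_lt_or_eq.1 h with h' | rfl
    · exact Subgroup.mem_sup_left (q_mem_qSub h')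
    · exact Subgroup.mem_sup_right (Subgroup.mem_zpowers _)

theorem qSub_le {H : Subgroup Cfsg.Spor.J4} (hz : zEl ∈ H) :
    ∀ k, (∀ j < k, qEl j ∈ H) → qSub k ≤ H
  | 0, _ => Subgroup.zpowers_le.2 hz
  | k + 1, h => sup_le (qSub_le hz k fun j hj => h j (Nat.lt_succ_of_lt hj))
      (Subgroup.zpowers_le.2 (h k (Nat.lt_succ_self k)))

include hinj in
theorem q_pattern {i j : ℕ} (hi : i < 12) (hj : j < 12) :
    (qEl i * qEl i = 1 ∨ qEl i * qEl i = zEl) ∧
      qEl i * qEl j = if i ^^^ 1 = j then qEl j * qEl i * zEl else qEl j * qEl i := by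
  have h := pat_ok
  simp only [patOK, List.all_eq_true, List.mem_range, Bool.and_eq_true] at h
  obtain ⟨h1, h2⟩ := h i hi
  refine ⟨?_, ?_⟩
  · have := eq_of_eqOn hinj h1
    cases hb : Nat.beq (Tab.sqQ.getD i 0) 1 <;> simp only [hb, cond_true, cond_false] at this
    · exact Or.inl (by simpa [prodEl_two, prodEl_nil, qEl] using this)
    · exact Or.inr (by simpa [prodEl_two, prodEl_one, qEl, zEl] using this)
  · have := eq_of_eqOn hinj (h2 j hj)
    cases hb : Nat.beq (i ^^^ 1) j <;> simp only [hb, cond_true, cond_false] at this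
    · rw [if_neg (Nat.ne_of_beq_eq_false hb)]
      simpa [prodEl_two, qEl] using this
    · rw [if_pos (Nat.eq_of_beq_eq_true hb)]
      simpa [prodEl, qEl, zEl, mul_assoc] using this

include hinj in
theorem z_comm_q {i : ℕ} (hi : i < 12) : qEl i * zEl = zEl * qEl i :=
  (z_facts hinj).2.2.2.2 _ (qi_mem hi)

theorem prodEl_mem {H : Subgroup Cfsg.Spor.J4} {ps L : List ℕ}
    (hL : ∀ p ∈ L, el p ∈ H) (h : ps.all (fun p => L.contains p) = true) : prodEl ps ∈ H := by
  refine list_prod_mem fun x hx => ?_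
  obtain ⟨p, hp, rfl⟩ := List.mem_map.1 hx
  exact hL p (List.contains_iff_mem.1 (List.all_eq_true.1 h p hp))

theorem iq_mem {p : ℕ} (h : p ∈ Tab.iq) : ∃ k < 12, qi k = p := by
  obtain ⟨k, hk, rfl⟩ := List.getElem_of_mem h
  exact ⟨k, by simpa [Tab.iq] using hk, List.getD_eq_getElem _ _ hk⟩

theorem prodEl_mem_qGrp {ps : List ℕ} (h : inQ ps = true) : prodEl ps ∈ qGrp := by
  refine prodEl_mem (L := Tab.iz :: Tab.iq) (fun p hp => ?_) h
  rcases List.mem_cons.1 hp with rfl | hp
  · exact z_mem_qSub _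
  · obtain ⟨k, hk, rfl⟩ := iq_mem hp
    exact q_mem_qSub hk

theorem prodEl_mem_nGrp {ps : List ℕ} (h : inN ps = true) : prodEl ps ∈ nGrp := by
  refine prodEl_mem (L := Tab.iw :: Tab.iz :: Tab.iq) (fun p hp => ?_) h
  rcases List.mem_cons.1 hp with rfl | hp
  · exact Subgroup.mem_sup_right (Subgroup.mem_zpowers _)
  rcases List.mem_cons.1 hp with rfl | hp
  · exact Subgroup.mem_sup_left (z_mem_qSub _)
  · obtain ⟨k, hk, rfl⟩ := iq_mem hp
    exact Subgroup.mem_sup_left (q_mem_qSub hk)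

theorem allGens_cases {i : ℕ} (h : i ∈ allGens) :
    i = Tab.iz ∨ (∃ k < 4, Tab.ig.getD k 0 = i) ∨ (∃ k < 12, qi k = i) ∨ i = Tab.iw := by
  simp only [allGens, List.mem_cons, List.mem_append, List.not_mem_nil, or_false] at h
  rcases h with h | (h | h) | h
  · exact Or.inl h
  · obtain ⟨k, hk, rfl⟩ := List.getElem_of_mem h
    exact Or.inr (Or.inl ⟨k, by simpa [Tab.ig] using hk, List.getD_eq_getElem _ _ hk⟩)
  · exact Or.inr (Or.inr (Or.inl (iq_mem h)))
  · exact Or.inr (Or.inr (Or.inr h))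

include hinj in
theorem finite_j4 : Finite Cfsg.Spor.J4 := Finite.of_injective rep hinj

theorem mem_normalizer_of_map_le {G : Type*} [Group G] [Finite G] {H : Subgroup G} {g : G}
    (h : ∀ x ∈ H, g * x * g⁻¹ ∈ H) : g ∈ Subgroup.normalizer (H : Set G) := by
  have hm : H.map (MulAut.conj g).toMonoidHom = H := by
    refine Subgroup.eq_of_le_of_card_ge ?_
      (Subgroup.card_map_of_injective (MulAut.conj g).injective).ge
    rintro _ ⟨x, hx, rfl⟩
    exact h x hx
  rw [Subgroup.mem_normalizer_iff]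
  refine fun x => ⟨h x, fun hx => ?_⟩
  rw [← hm] at hx
  obtain ⟨y, hy, hyx⟩ := hx
  exact (mul_left_cancel (mul_right_cancel hyx) : y = x) ▸ hy

include hinj in
theorem conj_q_mem {i : ℕ} (hi : i ∈ allGens) {k : ℕ} (hk : k < 12) :
    el i * qEl k * (el i)⁻¹ ∈ qGrp := by
  rcases allGens_cases hi with rfl | ⟨a, ha, rfl⟩ | ⟨a, ha, rfl⟩ | rfl
  · rw [show el Tab.iz * qEl k * (el Tab.iz)⁻¹ = qEl k by
      rw [← show qEl k * el Tab.iz = el Tab.iz * qEl k from z_comm_q hinj hk]; group]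
    exact q_mem_qSub hk
  · have hc : conjOK a = true := by
      interval_cases a
      exacts [conj0_ok, conj1_ok, conj2_ok, conj3_ok]
    simp only [conjOK, Bool.and_eq_true, List.all_eq_true, List.mem_range] at hc
    obtain ⟨h1, h2⟩ := hc.1.1 k hk
    have := eq_of_eqOn hinj h2
    rw [prodEl_two, prodEl_append] at this
    rw [show el (Tab.ig.getD a 0) * qEl k = el (Tab.ig.getD a 0) * el (qi k) from rfl, this,
      mul_inv_cancel_right]
    exact prodEl_mem_qGrp h1
  · show qEl a * qEl k * (qEl a)⁻¹ ∈ qGrp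
    rw [(q_pattern hinj ha hk).2]
    split
    · rw [mul_assoc (qEl k), show qEl a * zEl = zEl * qEl a from z_comm_q hinj ha,
        show qEl k * (zEl * qEl a) * (qEl a)⁻¹ = qEl k * zEl by group]
      exact mul_mem (q_mem_qSub hk) (z_mem_qSub _)
    · rw [mul_inv_cancel_right]
      exact q_mem_qSub hk
  · have hc := conjW_ok
    simp only [conjWOK, Bool.and_eq_true, List.all_eq_true, List.mem_range] at hc
    obtain ⟨h1, h2⟩ := hc k hk
    have := eq_of_eqOn hinj h2
    rw [prodEl_two, prodEl_append] at this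
    rw [show el Tab.iw * qEl k = el Tab.iw * el (qi k) from rfl, this, mul_inv_cancel_right]
    exact prodEl_mem_qGrp h1

include hinj in
theorem cGrp_le_normalizer_q : cGrp ≤ Subgroup.normalizer (qGrp : Set Cfsg.Spor.J4) := by
  haveI := finite_j4 hinj
  refine (Subgroup.closure_le _).2 ?_
  rintro _ ⟨i, hi, rfl⟩
  refine mem_normalizer_of_map_le fun x hx => ?_
  have : qGrp ≤ qGrp.comap (MulAut.conj (el i)).toMonoidHom := by
    refine qSub_le ?_ 12 fun k hk => conj_q_mem hinj hi hk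
    show el i * zEl * (el i)⁻¹ ∈ qGrp
    rw [(z_facts hinj).2.2.2.2 i hi, mul_inv_cancel_right]
    exact z_mem_qSub _
  exact this hx

theorem el_mem_cGrp {i : ℕ} (hi : i ∈ allGens) : el i ∈ cGrp :=
  Subgroup.subset_closure ⟨i, hi, rfl⟩

theorem z_mem_cGrp : zEl ∈ cGrp := el_mem_cGrp List.mem_cons_self

theorem w_mem_cGrp : wEl ∈ cGrp := el_mem_cGrp (by simp [allGens])

theorem qGrp_le_cGrp : qGrp ≤ cGrp :=
  qSub_le z_mem_cGrp 12 fun _ hk => el_mem_cGrp (qi_mem hk)

theorem nGrp_le_cGrp : nGrp ≤ cGrp := sup_le qGrp_le_cGrp (Subgroup.zpowers_le.2 w_mem_cGrp)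

include hinj in
theorem cGrp_le_normalizer_n : cGrp ≤ Subgroup.normalizer (nGrp : Set Cfsg.Spor.J4) := by
  haveI := finite_j4 hinj
  refine (Subgroup.closure_le _).2 ?_
  rintro _ ⟨i, hi, rfl⟩
  refine mem_normalizer_of_map_le fun x hx => ?_
  have hn := cGrp_le_normalizer_q hinj (el_mem_cGrp hi)
  have hw : el i * wEl * (el i)⁻¹ ∈ nGrp := by
    have hcl : ∀ y ∈ nGrp, y * wEl * y⁻¹ ∈ nGrp := fun y hy =>
      mul_mem (mul_mem hy (Subgroup.mem_sup_right (Subgroup.mem_zpowers _))) (inv_mem hy)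
    rcases allGens_cases hi with rfl | ⟨a, ha, rfl⟩ | ⟨a, ha, rfl⟩ | rfl
    · exact hcl _ (Subgroup.mem_sup_left (z_mem_qSub _))
    · have hc : conjOK a = true := by
        interval_cases a
        exacts [conj0_ok, conj1_ok, conj2_ok, conj3_ok]
      simp only [conjOK, Bool.and_eq_true] at hc
      have := eq_of_eqOn hinj hc.2
      rw [prodEl_two, prodEl_append] at this
      rw [show el (Tab.ig.getD a 0) * wEl = el (Tab.ig.getD a 0) * el Tab.iw from rfl, this,
        mul_inv_cancel_right]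
      exact prodEl_mem_nGrp hc.1.2
    · exact hcl _ (Subgroup.mem_sup_left (q_mem_qSub ha))
    · exact hcl _ (Subgroup.mem_sup_right (Subgroup.mem_zpowers _))
  have : nGrp ≤ nGrp.comap (MulAut.conj (el i)).toMonoidHom :=
    sup_le (fun q hq => Subgroup.mem_sup_left ((Subgroup.mem_normalizer_iff.1 hn q).1 hq))
      (Subgroup.zpowers_le.2 hw)
  exact this hx

end CfsgLib.J4Cent82
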