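import Cfsg.Agent.J4Cent82.Action
import Cfsg.Agent.J4Cent82.Elem
import Cfsg.Prelude.Def_Sporadic

/-!
The structure of the centralizer of the involution in the presented fourth Janko group, given that
the representation is faithful and that the centralizer is no larger than expected.
-/

set_option autoImplicit false
set_option maxRecDepth 100000

namespace CfsgLib.J4Cent82

open CfsgLib.J4Rep112 Cfsg.Spor

theorem extraspecial_of_equiv {G H : Type*} [Group G] [Group H] {p : ℕ} (e : G ≃* H)
    (h : Cfsg.IsExtraspecial p G) : Cfsg.IsExtraspecial p H := by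
  obtain ⟨⟨hp, hfr, hder⟩, hcard⟩ := h
  have hc : (Subgroup.center G).map e.toMonoidHom = Subgroup.center H := by
    refine le_antisymm ?_ fun y hy => ⟨e.symm y, Subgroup.mem_center_iff.2 fun v =>
      e.injective ?_, e.apply_symm_apply y⟩
    · rintro _ ⟨y, hy, rfl⟩
      refine Subgroup.mem_center_iff.2 fun u => ?_
      obtain ⟨v, rfl⟩ := e.surjective u
      show e v * e y = e y * e v
      rw [← map_mul, ← map_mul, Subgroup.mem_center_iff.1 hy v]
    · rw [map_mul, map_mul, e.apply_symm_apply, Subgroup.mem_center_iff.1 hy (e v)]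
  have hf : (frattini G).map e.toMonoidHom = frattini H :=
    le_antisymm (Subgroup.map_le_iff_le_comap.2
        (frattini_le_comap_frattini_of_surjective (φ := e.toMonoidHom) e.surjective))
      fun y hy => ⟨e.symm y, frattini_le_comap_frattini_of_surjective (φ := e.symm.toMonoidHom)
        e.symm.surjective hy, e.apply_symm_apply y⟩
  have hd : (commutator G).map e.toMonoidHom = commutator H := by
    rw [commutator_def, Subgroup.map_commutator, Subgroup.map_top_of_surjective _ e.surjective,
      ← commutator_def]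
  refine ⟨⟨hp.of_equiv e, ?_, ?_⟩, ?_⟩
  · rw [← hf, hfr, hc]
  · rw [← hd, hder, hc]
  · rw [← hc, ← hcard, Subgroup.card_map_of_injective e.injective]

theorem grow_getD : ∀ (r : List (List ℕ)) (acc : List Cfsg.Spor.J4) {i : ℕ}, i < acc.length →
    (grow r acc).getD i 1 = acc.getD i 1
  | [], _, _, _ => rfl
  | ps :: r, acc, i, h => by
    rw [grow, grow_getD r _ (by rw [List.length_append]; omega), List.getD_append _ _ _ _ h]

theorem zEl_eq : zEl = zCent := by
  have h : zEl = ((Tab.steps.getD 0 []).map fun i => baseElts.getD i 1).prod := by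
    have hs : Tab.steps = Tab.steps.getD 0 [] :: Tab.steps.tail := rfl
    rw [zEl, el, elts, hs, grow, grow_getD _ _ (by decide)]
    rfl
  rw [h, zCent, wCent]
  simp only [Tab.steps, List.getD_cons_zero, List.map_cons, List.map_nil, baseElts,
    List.getD_cons_succ, List.prod_cons, List.prod_nil, mul_one]
  simp only [J4.x, J4.y, J4.t, map_mul, map_pow, map_inv, PresentedGroup.of]
  simp only [pow_succ, pow_zero, one_mul, mul_inv_rev, inv_inv, mul_assoc]

/-- the statement about a subgroup that is to be identified with a centralizer -/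
def HasShape {G : Type} [Group G] (C : Subgroup G) : Prop :=
  ∃ (Q N M : Subgroup C), Q.Normal ∧ N.Normal ∧ Q ≤ N ∧ N ≤ M ∧ Nat.card Q = 2 ^ 13 ∧
    Cfsg.IsExtraspecial 2 Q ∧ Nat.card N = 3 * 2 ^ 13 ∧ M.index = 2 ∧
      ∃ (_ : (N.subgroupOf M).Normal), Cfsg.IsM22 (M ⧸ N.subgroupOf M)

variable (hinj : Function.Injective rep)
  (hbound : Nat.card (Subgroup.centralizer ({zCent} : Set Cfsg.Spor.J4)) ≤ 21799895040)

include hinj hbound in
theorem centralizer_eq : Subgroup.centralizer ({zCent} : Set Cfsg.Spor.J4) = cGrp := by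
  haveI := finite_j4 hinj
  refine (Subgroup.eq_of_le_of_card_ge ?_ (hbound.trans (card_cGrp_ge hinj))).symm
  refine (Subgroup.closure_le _).2 ?_
  rintro _ ⟨i, hi, rfl⟩
  refine Subgroup.mem_centralizer_singleton_iff.2 ?_
  rw [← zEl_eq]
  exact (z_facts hinj).2.2.2.2 i hi

include hinj hbound in
theorem hasShape_cGrp : HasShape cGrp := by
  haveI := finite_j4 hinj
  obtain ⟨hcardAut, -, H, hH, hH22⟩ :=
    Cfsg.Agent.S0414.result (Fintype.card_fin 22) hexFam_steiner
  have hker : (act.codRestrict (Cfsg.setSystemAut hexFam) act_mem_aut).ker =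
      nGrp.subgroupOf cGrp := by
    rw [MonoidHom.ker_codRestrict]
    have h : nGrp.subgroupOf cGrp ≤ act.ker := fun x hx => act_eq_one_of_mem_nGrp hx
    refine (Subgroup.eq_of_le_of_card_ge h ?_).symm
    rw [Nat.card_congr (Subgroup.subgroupOfEquivOfLe nGrp_le_cGrp).toEquiv, card_nGrp hinj]
    have := act.ker.card_mul_index
    rw [Subgroup.index_ker, range_act, hcardAut] at this
    rw [centralizer_eq hinj hbound] at hbound
    omega
  set f := act.codRestrict (Cfsg.setSystemAut hexFam) act_mem_aut with hf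
  have hsurj : Function.Surjective f := by
    rintro ⟨σ, hσ⟩
    rw [← range_act] at hσ
    obtain ⟨x, rfl⟩ := hσ
    exact ⟨x, rfl⟩
  haveI hN : (nGrp.subgroupOf cGrp).Normal :=
    Subgroup.normal_subgroupOf_of_le_normalizer (cGrp_le_normalizer_n hinj)
  have hNM : nGrp.subgroupOf cGrp ≤ H.comap f := by
    rw [← hker]
    exact Subgroup.comap_mono bot_le
  refine ⟨qGrp.subgroupOf cGrp, nGrp.subgroupOf cGrp, H.comap f,
    Subgroup.normal_subgroupOf_of_le_normalizer (cGrp_le_normalizer_q hinj), hN,
    fun x hx => Subgroup.mem_sup_left hx, hNM, ?_, ?_, ?_,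
    (Subgroup.index_comap_of_surjective H hsurj).trans hH, inferInstance, ?_⟩
  · rw [Nat.card_congr (Subgroup.subgroupOfEquivOfLe qGrp_le_cGrp).toEquiv]
    exact (q_card_ker hinj).1
  · exact extraspecial_of_equiv (Subgroup.subgroupOfEquivOfLe qGrp_le_cGrp).symm
      (qGrp_extraspecial hinj)
  · rw [Nat.card_congr (Subgroup.subgroupOfEquivOfLe nGrp_le_cGrp).toEquiv]
    exact card_nGrp hinj
  have hk2 : (f.subgroupComap H).ker = (nGrp.subgroupOf cGrp).subgroupOf (H.comap f) := by
    ext x
    rw [MonoidHom.mem_ker, Subgroup.mem_subgroupOf, ← hker, MonoidHom.mem_ker]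
    exact Subtype.ext_iff
  have e : (H.comap f) ⧸ (nGrp.subgroupOf cGrp).subgroupOf (H.comap f) ≃* H :=
    (QuotientGroup.quotientMulEquivOfEq hk2.symm).trans
      (QuotientGroup.quotientKerEquivOfSurjective _
        (MonoidHom.subgroupComap_surjective_of_surjective f H hsurj))
  haveI := hH22.1
  exact ⟨e.isSimpleGroup, (Nat.card_congr e.toEquiv).trans hH22.2⟩

include hinj hbound in
theorem hasShape_centralizer : HasShape (Subgroup.centralizer ({zCent} : Set Cfsg.Spor.J4)) := by
  rw [centralizer_eq hinj hbound]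
  exact hasShape_cGrp hinj hbound

include hinj in
theorem orderOf_zCent : orderOf zCent = 2 := zEl_eq ▸ order_z hinj

end CfsgLib.J4Cent82
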