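import Cfsg.Agent.J4Cent82.RelDefs

/-! Kernel checks that the involution is central. -/

set_option autoImplicit false
set_option maxRecDepth 100000
set_option maxHeartbeats 4000000

namespace CfsgLib.J4Cent82

theorem comm0_ok : commOK 0 = true := by decide +kernel

theorem comm1_ok : commOK 1 = true := by decide +kernel

theorem comm2_ok : commOK 2 = true := by decide +kernel

theorem comm3_ok : commOK 3 = true := by decide +kernel

theorem comm4_ok : commOK 4 = true := by decide +kernel

theorem comm5_ok : commOK 5 = true := by decide +kernel

theorem comm6_ok : commOK 6 = true := by decide +kernel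

theorem comm7_ok : commOK 7 = true := by decide +kernel

theorem comm8_ok : commOK 8 = true := by decide +kernel

theorem comm9_ok : commOK 9 = true := by decide +kernel

theorem comm10_ok : commOK 10 = true := by decide +kernel

theorem comm11_ok : commOK 11 = true := by decide +kernel

theorem comm12_ok : commOK 12 = true := by decide +kernel

theorem comm13_ok : commOK 13 = true := by decide +kernel

theorem comm14_ok : commOK 14 = true := by decide +kernel

theorem comm15_ok : commOK 15 = true := by decide +kernel

theorem comm16_ok : commOK 16 = true := by decide +kernel

theorem comm17_ok : commOK 17 = true := by decide +kernel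

theorem zwBase_ok : (eqOn [Tab.iz, Tab.iz] [] && eqOn [Tab.iw, Tab.iw, Tab.iw] [] &&
    !(eqOn [Tab.iz] []) && !(eqOn [Tab.iw] []) && inRange allGens) = true := by decide +kernel

end CfsgLib.J4Cent82
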