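import Cfsg.Agent.J4Cent82.Checks

/-!
Relations between the elements that generate the centraliser, as Boolean checks.
-/

set_option autoImplicit false
set_option maxRecDepth 100000
set_option maxHeartbeats 4000000

namespace CfsgLib.J4Cent82

/-- all generators -/
def allGens : List ℕ := Tab.iz :: (Tab.ig ++ Tab.iq ++ [Tab.iw])

/-- index of an extraspecial generator -/
def qi (k : ℕ) : ℕ := Tab.iq.getD k 0

/-- products allowed in the normal subgroups -/
def inQ (ps : List ℕ) : Bool := ps.all fun p => (Tab.iz :: Tab.iq).contains p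

/-- products allowed in the larger normal subgroup -/
def inN (ps : List ℕ) : Bool := ps.all fun p => (Tab.iw :: Tab.iz :: Tab.iq).contains p

/-- the involution and the element of order three -/
noncomputable def zwOK : Bool :=
  eqOn [Tab.iz, Tab.iz] [] && eqOn [Tab.iw, Tab.iw, Tab.iw] [] &&
    !(eqOn [Tab.iz] []) && !(eqOn [Tab.iw] []) && inRange allGens &&
    allGens.all fun i => eqOn [i, Tab.iz] [Tab.iz, i]

/-- one row of the commutator pattern -/
noncomputable def patRow (i : ℕ) : Bool :=
  eqOn [qi i, qi i] (cond (Nat.beq (Tab.sqQ.getD i 0) 1) [Tab.iz] []) &&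
    (List.range 12).all fun j =>
      eqOn [qi i, qi j] (cond (Nat.beq (i ^^^ 1) j) [qi j, qi i, Tab.iz] [qi j, qi i])

/-- the commutator pattern of the extraspecial generators -/
noncomputable def patOK : Bool :=
  (List.range 12).all fun i =>
    eqOn [qi i, qi i] (cond (Nat.beq (Tab.sqQ.getD i 0) 1) [Tab.iz] []) &&
      (List.range 12).all fun j =>
        eqOn [qi i, qi j] (cond (Nat.beq (i ^^^ 1) j) [qi j, qi i, Tab.iz] [qi j, qi i])

/-- one generator commutes with the involution -/
noncomputable def commOK (k : ℕ) : Bool :=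
  eqOn [allGens.getD k 0, Tab.iz] [Tab.iz, allGens.getD k 0]

/-- conjugates under the generators above the kernel -/
noncomputable def conjOK (k : ℕ) : Bool :=
  (List.range 12).all (fun i =>
    inQ ((Tab.conjQ.getD k []).getD i []) &&
      eqOn [Tab.ig.getD k 0, qi i] ((Tab.conjQ.getD k []).getD i [] ++ [Tab.ig.getD k 0])) &&
    inN (Tab.conjW.getD k []) &&
      eqOn [Tab.ig.getD k 0, Tab.iw] (Tab.conjW.getD k [] ++ [Tab.ig.getD k 0])

/-- conjugates under the element of order three -/
noncomputable def conjWOK : Bool :=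
  (List.range 12).all fun i => inQ (Tab.conjQW.getD i []) &&
    eqOn [Tab.iw, qi i] (Tab.conjQW.getD i [] ++ [Tab.iw])

end CfsgLib.J4Cent82
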