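import Cfsg.Agent.J4Cent82.Checks

/-! Kernel checks of the straight-line steps (generated). -/

set_option autoImplicit false
set_option maxRecDepth 100000
set_option maxHeartbeats 4000000

namespace CfsgLib.J4Cent82

theorem step0_ok : stepOK 0 = true := by decide +kernel

theorem step5_ok : stepOK 5 = true := by decide +kernel

theorem step8_ok : stepOK 8 = true := by decide +kernel

theorem step10_ok : stepOK 10 = true := by decide +kernel

theorem step13_ok : stepOK 13 = true := by decide +kernel

theorem step14_ok : stepOK 14 = true := by decide +kernel

theorem step16_ok : stepOK 16 = true := by decide +kernel

theorem step18_ok : stepOK 18 = true := by decide +kernel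

theorem step19_ok : stepOK 19 = true := by decide +kernel

theorem step25_ok : stepOK 25 = true := by decide +kernel

theorem step26_ok : stepOK 26 = true := by decide +kernel

theorem step30_ok : stepOK 30 = true := by decide +kernel

theorem step33_ok : stepOK 33 = true := by decide +kernel

theorem step38_ok : stepOK 38 = true := by decide +kernel

end CfsgLib.J4Cent82
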