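import Cfsg.Agent.J4Cent82.Checks

/-! Kernel checks of the straight-line steps (generated). -/

set_option autoImplicit false
set_option maxRecDepth 100000
set_option maxHeartbeats 4000000

namespace CfsgLib.J4Cent82

theorem step2_ok : stepOK 2 = true := by decide +kernel

theorem step4_ok : stepOK 4 = true := by decide +kernel

theorem step6_ok : stepOK 6 = true := by decide +kernel

theorem step15_ok : stepOK 15 = true := by decide +kernel

theorem step21_ok : stepOK 21 = true := by decide +kernel

theorem step27_ok : stepOK 27 = true := by decide +kernel

theorem step34_ok : stepOK 34 = true := by decide +kernel

end CfsgLib.J4Cent82
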