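import Cfsg.Agent.J4Cent82.Checks

/-! Kernel checks of the straight-line steps (generated). -/

set_option autoImplicit false
set_option maxRecDepth 100000
set_option maxHeartbeats 4000000

namespace CfsgLib.J4Cent82

theorem step3_ok : stepOK 3 = true := by decide +kernel

theorem step7_ok : stepOK 7 = true := by decide +kernel

theorem step9_ok : stepOK 9 = true := by decide +kernel

theorem step20_ok : stepOK 20 = true := by decide +kernel

theorem step22_ok : stepOK 22 = true := by decide +kernel

theorem step28_ok : stepOK 28 = true := by decide +kernel

theorem step35_ok : stepOK 35 = true := by decide +kernel

theorem step36_ok : stepOK 36 = true := by decide +kernel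

end CfsgLib.J4Cent82
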