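import Cfsg.Agent.J4Cent82.Checks

/-! Kernel checks of the straight-line steps (generated). -/

set_option autoImplicit false
set_option maxRecDepth 100000
set_option maxHeartbeats 4000000

namespace CfsgLib.J4Cent82

theorem step1_ok : stepOK 1 = true := by decide +kernel

theorem step11_ok : stepOK 11 = true := by decide +kernel

theorem step12_ok : stepOK 12 = true := by decide +kernel

theorem step17_ok : stepOK 17 = true := by decide +kernel

theorem step23_ok : stepOK 23 = true := by decide +kernel

theorem step24_ok : stepOK 24 = true := by decide +kernel

theorem step29_ok : stepOK 29 = true := by decide +kernel

theorem step31_ok : stepOK 31 = true := by decide +kernel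

theorem step32_ok : stepOK 32 = true := by decide +kernel

theorem step37_ok : stepOK 37 = true := by decide +kernel

end CfsgLib.J4Cent82
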