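import Mathlib.Tactic.IntervalCases
import Cfsg.Agent.J4Cent82.Steps0
import Cfsg.Agent.J4Cent82.Steps1
import Cfsg.Agent.J4Cent82.Steps2
import Cfsg.Agent.J4Cent82.Steps3

/-! All straight-line steps are correct. -/

set_option autoImplicit false

namespace CfsgLib.J4Cent82

theorem steps_ok : (List.range 39).all stepOK = true := by
  rw [List.all_eq_true]
  intro k hk
  rw [List.mem_range] at hk
  interval_cases k
  · exact step0_ok
  · exact step1_ok
  · exact step2_ok
  · exact step3_ok
  · exact step4_ok
  · exact step5_ok
  · exact step6_ok
  · exact step7_ok
  · exact step8_ok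
  · exact step9_ok
  · exact step10_ok
  · exact step11_ok
  · exact step12_ok
  · exact step13_ok
  · exact step14_ok
  · exact step15_ok
  · exact step16_ok
  · exact step17_ok
  · exact step18_ok
  · exact step19_ok
  · exact step20_ok
  · exact step21_ok
  · exact step22_ok
  · exact step23_ok
  · exact step24_ok
  · exact step25_ok
  · exact step26_ok
  · exact step27_ok
  · exact step28_ok
  · exact step29_ok
  · exact step30_ok
  · exact step31_ok
  · exact step32_ok
  · exact step33_ok
  · exact step34_ok
  · exact step35_ok
  · exact step36_ok
  · exact step37_ok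
  · exact step38_ok

end CfsgLib.J4Cent82
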