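import Cfsg.Agent.J4Rep112.Hom
import Cfsg.Agent.J4Cent82.Data
import Cfsg.Agent.J4Cent82.Elem
import Cfsg.Agent.J4Cent82.Checks
import Cfsg.Agent.J4Cent82.StepsOK

/-!
Elements of the presented fourth Janko group given by straight-line steps, with their matrices in
the 112-dimensional representation over two elements.
-/

set_option autoImplicit false
set_option maxRecDepth 100000
set_option Elab.async false
set_option maxHeartbeats 400000

namespace CfsgLib.J4Cent82

open Cfsg.Spor CfsgLib.CosetEnum CfsgLib.J4Rep112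

/-- the six letters -/
def baseElts : List Cfsg.Spor.J4 :=
  [PresentedGroup.of J4.Gen.x, (PresentedGroup.of J4.Gen.x)⁻¹, PresentedGroup.of J4.Gen.y,
    (PresentedGroup.of J4.Gen.y)⁻¹, PresentedGroup.of J4.Gen.t, (PresentedGroup.of J4.Gen.t)⁻¹]

/-- append the products described by the steps -/
def grow : List (List ℕ) → List Cfsg.Spor.J4 → List Cfsg.Spor.J4
  | [], acc => acc
  | ps :: r, acc => grow r (acc ++ [(ps.map fun i => acc.getD i 1).prod])

/-- all named elements -/
def elts : List Cfsg.Spor.J4 := grow Tab.steps baseElts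

/-- a named element -/
def el (i : ℕ) : Cfsg.Spor.J4 := elts.getD i 1

/-- product of named elements -/
def prodEl (ps : List ℕ) : Cfsg.Spor.J4 := (ps.map el).prod

/-- a table describes the image of an element -/
def Describes (T : List ℕ) (g : Cfsg.Spor.J4) : Prop :=
  addOK T = true ∧ ∀ v : Vec, ((rep g) v : ℕ) = vm T v.1

theorem comp_xor : ∀ (Ts : List (List ℕ)), (∀ T ∈ Ts, addOK T = true) → ∀ a b : ℕ,
    comp Ts (a ^^^ b) = comp Ts a ^^^ comp Ts b
  | [], _, _, _ => rfl
  | T :: Ts, h, a, b => by
    rw [comp_cons, comp_cons, comp_cons, comp_xor Ts (fun S hS => h S (List.mem_cons_of_mem _ hS)),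
      vm_xor T (h T List.mem_cons_self)]

theorem eq_of_basis (f g : ℕ → ℕ) (hf : ∀ a b, f (a ^^^ b) = f a ^^^ f b)
    (hg : ∀ a b, g (a ^^^ b) = g a ^^^ g b) (n : ℕ) (h : ∀ i < n, f (2 ^ i) = g (2 ^ i)) :
    ∀ v < 2 ^ n, f v = g v := by
  intro v hv
  have := eq_self_of_basis (fun u => f u ^^^ g u ^^^ u)
    (fun a b => by simp only [hf, hg]; ac_rfl) n
    (fun i hi => by simp [h i hi]) v hv
  have h2 : f v ^^^ g v = 0 := by
    have h3 := congrArg (· ^^^ v) this
    simpa [Nat.xor_assoc] using h3
  exact Nat.xor_eq_zero_iff.1 h2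

theorem describes_list : ∀ {gs : List Cfsg.Spor.J4} {Ts : List (List ℕ)},
    List.Forall₂ Describes Ts gs → (∀ T ∈ Ts, addOK T = true) ∧
      ∀ v : Vec, ((rep gs.prod) v : ℕ) = comp Ts v.1
  | _, _, .nil => by simp [comp]
  | _, _, .cons (a := T) (b := g) (l₁ := Ts) (l₂ := gs) h hr => by
    obtain ⟨h1, h2⟩ := describes_list hr
    refine ⟨fun S hS => ?_, fun v => ?_⟩
    · rcases List.mem_cons.1 hS with rfl | hS
      exacts [h.1, h1 S hS]
    · rw [List.prod_cons, map_mul, Equiv.Perm.mul_apply, h.2, h2, comp_cons]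

theorem describes_base : List.Forall₂ Describes mats baseElts := by
  have hx : ∀ a, rep (PresentedGroup.of a) = val (enc a) := fun a => PresentedGroup.toGroup.of _
  have hv : ∀ c, c < 6 → ∀ v : Vec, ((val c) v : ℕ) = vm (mats.getD c []) v.1 := by
    intro c hc v
    rw [val, dif_pos hc]
    rfl
  have hi : ∀ a, rep (PresentedGroup.of a)⁻¹ = val (enc a ^^^ 1) := fun a => by
    rw [map_inv, hx, val_iv (by cases a <;> decide)]
  have hadd : ∀ c < 6, addOK (mats.getD c []) = true := fun c hc =>
    List.all_eq_true.1 mats_addOK _ (by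
      rw [List.getD_eq_getElem _ _ (by simpa [mats] using hc)]; exact List.getElem_mem _)
  refine List.Forall₂.cons ⟨hadd 0 (by omega), fun v => ?_⟩ (.cons ⟨hadd 1 (by omega), fun v => ?_⟩
    (.cons ⟨hadd 2 (by omega), fun v => ?_⟩ (.cons ⟨hadd 3 (by omega), fun v => ?_⟩
      (.cons ⟨hadd 4 (by omega), fun v => ?_⟩ (.cons ⟨hadd 5 (by omega), fun v => ?_⟩ .nil)))))
  · rw [hx]; exact hv 0 (by omega) v
  · rw [hi]; exact hv 1 (by omega) v
  · rw [hx]; exact hv 2 (by omega) v
  · rw [hi]; exact hv 3 (by omega) v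
  · rw [hx]; exact hv 4 (by omega) v
  · rw [hi]; exact hv 5 (by omega) v

theorem forall₂_getD {l : List (List ℕ)} {gs : List Cfsg.Spor.J4}
    (h : List.Forall₂ Describes l gs) {i : ℕ} (hi : i < l.length) :
    Describes (l.getD i []) (gs.getD i 1) := by
  rw [List.getD_eq_getElem _ _ hi, List.getD_eq_getElem _ _ (h.length_eq ▸ hi)]
  exact List.Forall₂.get h hi (h.length_eq ▸ hi)

theorem steps_len : Tab.steps.length = Tab.stepMats.length := by decide +kernel

theorem steps_count : Tab.steps.length = 39 := by decide +kernel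

theorem describes_grow : ∀ (n k : ℕ) (acc : List Cfsg.Spor.J4), k + n = Tab.steps.length →
    List.Forall₂ Describes (mats ++ Tab.stepMats.take k) acc →
    List.Forall₂ Describes allMats (grow (Tab.steps.drop k) acc)
  | 0, k, acc, hk, h => by
    rw [List.drop_eq_nil_of_le (by omega), grow]
    rwa [List.take_of_length_le (by rw [← steps_len]; omega)] at h
  | n + 1, k, acc, hk, h => by
    have hlt : k < Tab.steps.length := by omega
    have hlt' : k < Tab.stepMats.length := steps_len ▸ hlt
    rw [List.drop_eq_getElem_cons hlt, grow]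
    refine describes_grow n (k + 1) _ (by omega) ?_
    rw [← List.take_concat_get' _ _ hlt', ← List.append_assoc]
    refine List.rel_append h (.cons ?_ .nil)
    have hs := List.all_eq_true.1 steps_ok k (List.mem_range.2 (steps_count ▸ hlt))
    simp only [stepOK, Bool.and_eq_true, List.getD_eq_getElem _ _ hlt,
      List.getD_eq_getElem _ _ hlt', List.all_eq_true, Nat.blt, Nat.ble_eq] at hs
    obtain ⟨⟨ha, hp⟩, hb⟩ := hs
    have hlen : (mats ++ Tab.stepMats.take k).length = 6 + k := by
      simp [mats, List.length_take, Nat.min_eq_left hlt'.le]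
      omega
    have hget : ∀ p, p < 6 + k → allMats.getD p [] = (mats ++ Tab.stepMats.take k).getD p [] := by
      intro p hp'
      have : allMats = (mats ++ Tab.stepMats.take k) ++ Tab.stepMats.drop k := by
        rw [allMats, List.append_assoc, List.take_append_drop]
      rw [this, List.getD_append _ _ _ _ (hlen ▸ hp')]
    have hf : List.Forall₂ Describes (tabsOf Tab.steps[k])
        (Tab.steps[k].map fun i => acc.getD i 1) := by
      rw [tabsOf, List.forall₂_map_left_iff, List.forall₂_map_right_iff, List.forall₂_same]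
      intro p hp'
      have hp6 : p < 6 + k := hp p hp'
      rw [hget p hp6]
      exact forall₂_getD h (hlen ▸ hp6)
    obtain ⟨h1, h2⟩ := describes_list hf
    refine ⟨addOK_of_basisOK ha, fun v => ?_⟩
    exact (h2 v).trans (eq_of_basis _ _ (vm_xor _ (addOK_of_basisOK ha)) (comp_xor _ h1) 112
      (fun i hi => Nat.eq_of_beq_eq_true (hb i (List.mem_range.2 hi))) v.1 v.2).symm

theorem describes_all : List.Forall₂ Describes allMats elts := by
  have := describes_grow Tab.steps.length 0 baseElts (by omega) (by simpa using describes_base)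
  rwa [List.drop_zero] at this

theorem describes_el {i : ℕ} (hi : i < allMats.length) : Describes (allMats.getD i []) (el i) :=
  forall₂_getD describes_all hi

theorem rep_prodEl {ps : List ℕ} (h : inRange ps = true) :
    (∀ T ∈ tabsOf ps, addOK T = true) ∧ ∀ v : Vec, ((rep (prodEl ps)) v : ℕ) = comp (tabsOf ps) v.1 := by
  refine describes_list (gs := ps.map el) ?_
  rw [tabsOf, List.forall₂_map_left_iff, List.forall₂_map_right_iff, List.forall₂_same]
  intro p hp
  simp only [inRange, List.all_eq_true, Nat.blt, Nat.ble_eq] at h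
  exact describes_el (h p hp)

theorem rep_eq_of_eqOn {ps qs : List ℕ} (h : eqOn ps qs = true) :
    rep (prodEl ps) = rep (prodEl qs) := by
  simp only [eqOn, Bool.and_eq_true, List.all_eq_true] at h
  obtain ⟨⟨h1, h2⟩, h3⟩ := h
  obtain ⟨a1, b1⟩ := rep_prodEl h1
  obtain ⟨a2, b2⟩ := rep_prodEl h2
  refine Equiv.ext fun v => Subtype.ext ?_
  rw [b1, b2]
  exact eq_of_basis _ _ (comp_xor _ a1) (comp_xor _ a2) 112
    (fun i hi => Nat.eq_of_beq_eq_true (h3 i (List.mem_range.2 hi))) v.1 v.2

/-- some basis vector separates two products -/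
noncomputable def neOn (ps qs : List ℕ) : Bool :=
  inRange ps && inRange qs && !(eqOn ps qs)

theorem rep_ne_of_neOn {ps qs : List ℕ} (h : neOn ps qs = true) :
    rep (prodEl ps) ≠ rep (prodEl qs) := by
  intro e
  simp only [neOn, Bool.and_eq_true, Bool.not_eq_true'] at h
  obtain ⟨⟨h1, h2⟩, h3⟩ := h
  have : eqOn ps qs = true := by
    rw [eqOn, h1, h2, Bool.true_and, Bool.true_and, List.all_eq_true]
    intro i hi
    have hlt : 2 ^ i < 2 ^ 112 := Nat.pow_lt_pow_right (by norm_num) (List.mem_range.1 hi)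
    have e' := congrArg (fun g : Equiv.Perm Vec => (g ⟨2 ^ i, hlt⟩).1) e
    simp only [(rep_prodEl h1).2, (rep_prodEl h2).2] at e'
    rw [e']
    exact Nat.beq_refl _
  simp_all

end CfsgLib.J4Cent82
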